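import Cfsg.Agent.H886.Spin.Label
import Cfsg.Agent.H87.Spin.Ones

/-!
# The strict partitions of `9` and the spin degrees (S4766, D6 for `n = 9`; helper450)
-/

set_option autoImplicit false

namespace Cfsg.Agent.H450.AN

open Cfsg Cfsg.Agent.Characters.Core Cfsg.Agent.H614 Cfsg.Agent.H614.Spin

/-- the odd part, with fuel -/
def odp : ℕ → ℕ → ℕ
  | 0, n => n
  | k + 1, n => if n % 2 = 0 then odp k (n / 2) else n

theorem odp_spec (k n : ℕ) : ∃ s, n = 2 ^ s * odp k n := by
  induction k generalizing n with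
  | zero => exact ⟨0, by simp [odp]⟩
  | succ k ih =>
    rw [odp]
    split_ifs with h
    · obtain ⟨s, hs⟩ := ih (n / 2)
      refine ⟨s + 1, ?_⟩
      have h1 : n = 2 * (n / 2) := by omega
      rw [pow_succ, mul_comm (2 ^ s) 2, mul_assoc, ← hs]
      exact h1
    · exact ⟨0, by simp⟩

theorem odd_dvd {a b o o' : ℕ} (h : 2 ^ a * o = 2 ^ b * o') (ho : Odd o) : o ∣ o' := by
  have h1 : o ∣ 2 ^ b * o' := ⟨2 ^ a, by rw [← h, mul_comm]⟩
  have h2 : Nat.Coprime o (2 ^ b) := (Nat.Coprime.pow_right b (Nat.coprime_two_right.2 ho))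
  exact h2.dvd_of_dvd_mul_left h1

theorem odp_eq {a b d g k : ℕ} (h : 2 ^ a * d = 2 ^ b * g) (hd : Odd (odp k d)) (hg : Odd (odp k g)) :
    odp k d = odp k g := by
  obtain ⟨s, hs⟩ := odp_spec k d
  obtain ⟨t, ht⟩ := odp_spec k g
  have h1 : 2 ^ (a + s) * odp k d = 2 ^ (b + t) * odp k g := by
    rw [pow_add, pow_add, mul_assoc, mul_assoc, ← hs, ← ht, h]
  exact Nat.dvd_antisymm (odd_dvd h1 hd) (odd_dvd h1.symm hg)

/-- strict partitions of `9`, the number `g`, the bound for the degree -/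
def labs : List (List ℤ × ℕ × ℕ) :=
  [([9], 1, 8), ([8, 1], 7, 56), ([7, 2], 20, 0), ([6, 3], 28, 56), ([5, 4], 14, 56), ([6, 2, 1], 30, 120),
   ([5, 3, 1], 42, 168), ([4, 3, 2], 12, 48)]

theorem sum_nonneg_of_strict {L : List ℤ} (hL : ∀ a ∈ L, 0 < a) : 0 ≤ L.sum :=
  List.sum_nonneg fun a ha => (hL a ha).le

theorem exists_lab {L : List ℤ} (hL : Strict L) (hs : L.sum = (9 : ℕ)) : ∃ r ∈ labs, r.1 = L := by
  obtain ⟨hp, h0⟩ := hL
  rcases L with _ | ⟨a, L⟩
  · simp at hs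
  rcases L with _ | ⟨b, L⟩
  · simp at hs
    subst hs
    exact ⟨([9], 1, 8), by simp [labs], rfl⟩
  rcases L with _ | ⟨c, L⟩
  · simp at hs hp h0
    obtain ⟨ha, hb⟩ := h0
    have hb4 : b ≤ 4 := by omega
    obtain rfl : a = 9 - b := by omega
    interval_cases b
    · exact ⟨([8, 1], 7, 56), by simp [labs], by norm_num⟩
    · exact ⟨([7, 2], 20, 0), by simp [labs], by norm_num⟩
    · exact ⟨([6, 3], 28, 56), by simp [labs], by norm_num⟩
    · exact ⟨([5, 4], 14, 56), by simp [labs], by norm_num⟩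
  rcases L with _ | ⟨d, L⟩
  · simp at hs hp h0
    obtain ⟨ha, hb, hc⟩ := h0
    obtain ⟨⟨hab, hac⟩, hbc⟩ := hp
    have hc2 : c ≤ 2 := by omega
    have hb3 : b ≤ 4 := by omega
    obtain rfl : a = 9 - b - c := by omega
    interval_cases c <;> interval_cases b
    · exact ⟨([6, 2, 1], 30, 120), by simp [labs], by norm_num⟩
    · exact ⟨([5, 3, 1], 42, 168), by simp [labs], by norm_num⟩
    · omega
    · exact ⟨([4, 3, 2], 12, 48), by simp [labs], by norm_num⟩
    · omega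
  · exfalso
    have h1 := sum_nonneg_of_strict (L := L) (fun x hx => h0 x (by simp [hx]))
    simp at hs hp h0
    omega

theorem X_lab : ∀ r ∈ labs, X (Multiset.replicate 9 1) r.1 = (r.2.1 : ℤ) := by
  have key : ∀ (L : List ℤ) (g : ℕ), Strict L → L.sum = (9 : ℕ) →
      ((Nat.factorial 9 : ℕ) : ℚ) / (L.map fun a => ((a.toNat.factorial : ℕ) : ℚ)).prod * ratio L = g →
      X (Multiset.replicate 9 1) L = (g : ℤ) := by
    intro L g hL hs h
    have h1 := X_ones 9 hL hs
    rw [h] at h1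
    exact_mod_cast h1
  intro r hr
  simp only [labs, List.mem_cons, List.not_mem_nil, or_false] at hr
  rcases hr with rfl | rfl | rfl | rfl | rfl | rfl | rfl | rfl
  · exact key _ _ ⟨by decide, by decide⟩ (by decide) (by simp [ratio]; norm_num [Nat.factorial])
  · exact key _ _ ⟨by decide, by decide⟩ (by decide) (by simp [ratio]; norm_num [Nat.factorial])
  · exact key _ _ ⟨by decide, by decide⟩ (by decide) (by simp [ratio]; norm_num [Nat.factorial])
  · exact key _ _ ⟨by decide, by decide⟩ (by decide) (by simp [ratio]; norm_num [Nat.factorial])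
  · exact key _ _ ⟨by decide, by decide⟩ (by decide) (by simp [ratio]; norm_num [Nat.factorial])
  · exact key _ _ ⟨by decide, by decide⟩ (by decide) (by simp [ratio]; norm_num [Nat.factorial])
  · exact key _ _ ⟨by decide, by decide⟩ (by decide) (by simp [ratio]; norm_num [Nat.factorial])
  · exact key _ _ ⟨by decide, by decide⟩ (by decide) (by simp [ratio]; norm_num [Nat.factorial])

/-- the degrees of `A_9` -/
def deg9 : List ℕ := [1, 8, 21, 27, 28, 35, 42, 48, 56, 84, 105, 120, 162, 168, 189, 216]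

theorem table : ∀ r ∈ labs, ∀ d ∈ deg9, (odp 8 d) % 2 = 1 ∧ (odp 8 r.2.1) % 2 = 1 ∧
    (odp 8 d = odp 8 r.2.1 → d ≤ r.2.2) := by
  decide

/-- the degree bound -/
theorem bound {r : List ℤ × ℕ × ℕ} (hr : r ∈ labs) {d a b : ℕ} (hd : d ∈ deg9) (h : 2 ^ a * d = 2 ^ b * r.2.1) :
    d ≤ r.2.2 := by
  obtain ⟨h1, h2, h3⟩ := table r hr d hd
  exact h3 (odp_eq h (Nat.odd_iff.2 h1) (Nat.odd_iff.2 h2))

theorem sum_lab : (labs.map fun r => 2 * r.2.2 ^ 2).sum = 108800 := by decide

end Cfsg.Agent.H450.AN
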