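import Cfsg.Agent.H450.AN.Labels
import Cfsg.Agent.H388.AN.Large
import Cfsg.Agent.H835.AN.Deg
import Cfsg.Agent.H957.AN.D4
import Cfsg.Agent.H686.Spin.Data

/-!
# S4766, D6 for `n = 8` and `n = 9` (helper450)
-/

set_option autoImplicit false
set_option linter.style.haveILetI false

namespace Cfsg.Agent.H450.AN

open Cfsg Cfsg.Agent.Characters.Core Cfsg.Agent.H614 Cfsg.Agent.H614.Spin Cfsg.Agent.H691.AN
open Cfsg.Agent.SporadicRecognition.AltCover Cfsg.Agent.H388.AN

universe u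

/-- the labels of the faithful characters of a double cover of `A_n` -/
theorem exists_labels {n : ℕ} (hn : 5 ≤ n) {N : Type u} [Group N] [Finite N] {π : N →* An n} {z : N}
    (h : IsCover π z) :
    ∃ (τ : N ≃* N) (B : N → ℂ) (k' : ℕ), B 1 = 2 ^ k' ∧ ∀ χ : N → ℂ, IsIrrCharacter N χ → χ z ≠ χ 1 →
      ∃ L : List ℤ, Strict L ∧ L.sum = n ∧ ∃ j k : ℕ, ∀ x : N,
        (2 : ℂ) ^ j * (χ x + χ (τ x)) = 2 ^ k * (B x * X (ty (π x : Equiv.Perm (Fin n))) L) := by
  obtain ⟨T, iT, fT, P, zT, b, e, hd, he1, he2⟩ := Cfsg.Agent.H686.Spin.exists_spinData hn h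
  have hne : (⟨0, by omega⟩ : Fin n) ≠ ⟨1, by omega⟩ := by
    intro h1
    simp at h1
  obtain ⟨t, ht⟩ := hd.surj (Equiv.swap (⟨0, by omega⟩ : Fin n) ⟨1, by omega⟩)
  have htA : P t ∉ alternatingGroup (Fin n) := by
    rw [ht, Equiv.Perm.mem_alternatingGroup, Equiv.Perm.sign_swap hne]
    decide
  have hHn : ((alternatingGroup (Fin n)).comap P : Subgroup T).Normal := inferInstance
  let c : ((alternatingGroup (Fin n)).comap P : Subgroup T) ≃* ((alternatingGroup (Fin n)).comap P : Subgroup T) :=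
    MulAut.conjNormal t
  have hc : ∀ x, ((c x : ((alternatingGroup (Fin n)).comap P : Subgroup T)) : T) = t * x * t⁻¹ := fun x => rfl
  obtain ⟨k', hk'⟩ := hd.one_pos
  refine ⟨(e.trans c).trans e.symm, fun x => b (e x : T), k', ?_, ?_⟩
  · change b (e 1 : T) = _
    rw [map_one, Subgroup.coe_one, hk']
  · intro χ hχ hχz
    have h1 : IsIrrCharacter ((alternatingGroup (Fin n)).comap P : Subgroup T) (χ ∘ e.symm) :=
      isIrr_comp e.symm.toMonoidHom e.symm.surjective hχ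
    obtain ⟨L, hL, hLs, j, k, hjk⟩ := Cfsg.Agent.H886.Spin.exists_label (by omega) hd ⟨χ ∘ e.symm, h1⟩ (by
      intro x hx
      have h2 : x = e z := Subtype.ext (hx.trans he2.symm)
      change χ (e.symm x) ≠ χ (e.symm 1)
      rw [h2, e.symm_apply_apply, map_one]
      exact hχz) t htA
    refine ⟨L, hL, hLs, j, k, fun x => ?_⟩
    have h2 := hjk (e x) (c (e x)) (hc _)
    change (2 : ℂ) ^ j * (χ (e.symm (e x)) + χ (e.symm (c (e x)))) = 2 ^ k * (b (e x : T) * _) at h2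
    rw [e.symm_apply_apply, he1] at h2
    exact h2

/-- two characters with the same label are equal or conjugate -/
theorem same_label {N : Type u} [Group N] [Finite N] (τ : N ≃* N) {χ χ' : N → ℂ} (hχ : IsIrrCharacter N χ)
    (hχ' : IsIrrCharacter N χ') {j k j' k' : ℕ} {C : N → ℂ}
    (h : ∀ x, (2 : ℂ) ^ j * (χ x + χ (τ x)) = 2 ^ k * C x)
    (h' : ∀ x, (2 : ℂ) ^ j' * (χ' x + χ' (τ x)) = 2 ^ k' * C x) : χ' = χ ∨ χ' = χ ∘ τ := by
  classical
  have := Fintype.ofFinite N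
  by_contra hcon
  push Not at hcon
  have h1 : IsIrrCharacter N (χ ∘ τ) := isIrr_comp τ.toMonoidHom τ.surjective hχ
  have h1' : IsIrrCharacter N (χ' ∘ τ) := isIrr_comp τ.toMonoidHom τ.surjective hχ'
  have h2 : (2 : ℂ) ^ (k' + j) • (χ + χ ∘ τ) = (2 : ℂ) ^ (k + j') • (χ' + χ' ∘ τ) := by
    funext x
    have e1 := h x
    have e2 := h' x
    change (2 : ℂ) ^ (k' + j) * (χ x + χ (τ x)) = (2 : ℂ) ^ (k + j') * (χ' x + χ' (τ x))
    rw [pow_add, pow_add, mul_assoc, mul_assoc, e1, e2]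
    ring
  have h3 := congrArg (fun f => classInner f χ') h2
  simp only [classInner_smul_left, classInner_add_left] at h3
  rw [classInner_irr_ne hχ hχ' hcon.1.symm, classInner_irr_ne h1 hχ' hcon.2.symm, classInner_irr_self hχ', add_zero,
    mul_zero] at h3
  have h4 : (1 : ℂ) + classInner (χ' ∘ τ) χ' ≠ 0 := by
    rw [classInner_irr h1' hχ']
    split_ifs
    · norm_num
    · norm_num
  exact (mul_ne_zero (pow_ne_zero _ two_ne_zero) h4) h3.symm

open Classical in
/-- **the sum of the squares of the faithful degrees is too small** -/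
theorem nine_aux {N : Type u} [Group N] [Finite N] {π : N →* An 9} {z : N} (h : IsCover π z) {Z : Subgroup N}
    (hZ : Z ≤ Subgroup.center N) (hzZ : z ∈ Z) (l : Z →* ℂˣ) (hl : (l ⟨z, hzZ⟩ : ℂ) = -1) (hidx : Z.index = 181440)
    (hpow : ∀ χ : N → ℂ, IsIrrCharacter N χ → ∀ a : ℕ, χ 1 = a → ∃ i, 2 ^ i * a ∈ deg9) : False := by
  haveI := finite_irr (G := N)
  haveI := Fintype.ofFinite (IrrCharacter N)
  obtain ⟨τ, B, k', hB, hlab⟩ := exists_labels (by norm_num) h
  have hsum := sum_sq hZ l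
  rw [hidx, ← Finset.sum_filter] at hsum
  set S := Finset.univ.filter fun χ : IrrCharacter N => Over Z l χ with hS
  -- the relation
  let Rel : IrrCharacter N → (List ℤ × ℕ × ℕ) → Prop := fun χ r => ∃ j k : ℕ, ∀ x : N,
    (2 : ℂ) ^ j * ((χ : N → ℂ) x + (χ : N → ℂ) (τ x)) = 2 ^ k * (B x * X (ty (π x : Equiv.Perm (Fin 9))) r.1)
  have hex : ∀ χ ∈ S, ∃ r, r ∈ labs ∧ Rel χ r := by
    intro χ hχ
    have hov := (Finset.mem_filter.1 hχ).2
    have h1 : (χ : N → ℂ) z ≠ (χ : N → ℂ) 1 := by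
      have h2 := hov ⟨z, hzZ⟩
      rw [hl] at h2
      change (χ : N → ℂ) z = _ at h2
      rw [h2]
      intro h3
      have h4 := isIrr_apply_one_ne_zero χ.2
      apply h4
      linear_combination (-1 / 2 : ℂ) * h3
    obtain ⟨L, hL, hLs, j, k, hjk⟩ := hlab χ χ.2 h1
    obtain ⟨r, hr, rfl⟩ := exists_lab hL hLs
    exact ⟨r, hr, j, k, hjk⟩
  let f : IrrCharacter N → (List ℤ × ℕ × ℕ) := fun χ => if h : ∃ r, r ∈ labs ∧ Rel χ r then h.choose else ([], 0, 0)
  have hf : ∀ χ ∈ S, f χ ∈ labs ∧ Rel χ (f χ) := by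
    intro χ hχ
    have h1 : f χ = (hex χ hχ).choose := dif_pos (hex χ hχ)
    rw [h1]
    exact (hex χ hχ).choose_spec
  have hmaps : ∀ χ ∈ S, f χ ∈ labs.toFinset := fun χ hχ => List.mem_toFinset.2 (hf χ hχ).1
  rw [← Finset.sum_fiberwise_of_maps_to hmaps] at hsum
  have hle : ∀ r ∈ labs.toFinset, ∑ χ ∈ S.filter (fun χ => f χ = r), charDegree (χ : N → ℂ) ^ 2 ≤ 2 * r.2.2 ^ 2 := by
    intro r hr
    have hr' := List.mem_toFinset.1 hr
    -- each degree
    have hdeg : ∀ χ ∈ S.filter (fun χ => f χ = r), charDegree (χ : N → ℂ) ^ 2 ≤ r.2.2 ^ 2 := by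
      intro χ hχ
      obtain ⟨hχS, hχr⟩ := Finset.mem_filter.1 hχ
      obtain ⟨j, k, hjk⟩ := (hf χ hχS).2
      rw [hχr] at hjk
      obtain ⟨m, hm0, hm⟩ := isIrr_apply_one χ.2
      have h1 := hjk 1
      rw [map_one, map_one, hm, hB, Subgroup.coe_one, ty_one, Fintype.card_fin, X_lab r hr'] at h1
      have h2 : 2 ^ (j + 1) * m = 2 ^ (k + k') * r.2.1 := by
        have h3 : ((2 ^ (j + 1) * m : ℕ) : ℂ) = ((2 ^ (k + k') * r.2.1 : ℕ) : ℂ) := by
          push_cast
          push_cast at h1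
          rw [pow_succ, pow_add]
          linear_combination h1
        exact_mod_cast h3
      obtain ⟨i, hi⟩ := hpow χ χ.2 m hm
      have h3 : 2 ^ (j + 1) * (2 ^ i * m) = 2 ^ (i + (k + k')) * r.2.1 := by
        rw [pow_add 2 i, mul_assoc, ← h2]
        ring
      have h4 := bound hr' hi h3
      rw [Cfsg.Agent.Blocks.Basic.charDegree_of_eq hm]
      have h5 : m ≤ 2 ^ i * m := Nat.le_mul_of_pos_left _ (by positivity)
      exact Nat.pow_le_pow_left (h5.trans h4) 2
    have hcard : (S.filter (fun χ => f χ = r)).card ≤ 2 := by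
      by_cases hne : (S.filter (fun χ => f χ = r)).Nonempty
      · obtain ⟨χ, hχ⟩ := hne
        obtain ⟨hχS, hχr⟩ := Finset.mem_filter.1 hχ
        obtain ⟨j, k, hjk⟩ := (hf χ hχS).2
        rw [hχr] at hjk
        have h1 : IsIrrCharacter N ((χ : N → ℂ) ∘ τ) := isIrr_comp τ.toMonoidHom τ.surjective χ.2
        have h2 : S.filter (fun χ => f χ = r) ⊆ {χ, ⟨(χ : N → ℂ) ∘ τ, h1⟩} := by
          intro χ' hχ'
          obtain ⟨hχS', hχr'⟩ := Finset.mem_filter.1 hχ'
          obtain ⟨j', k'', hjk'⟩ := (hf χ' hχS').2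
          rw [hχr'] at hjk'
          rw [Finset.mem_insert, Finset.mem_singleton]
          rcases same_label τ χ.2 χ'.2 hjk hjk' with h3 | h3
          · exact Or.inl (Subtype.ext h3)
          · exact Or.inr (Subtype.ext h3)
        exact (Finset.card_le_card h2).trans Finset.card_le_two
      · rw [Finset.not_nonempty_iff_eq_empty.1 hne, Finset.card_empty]
        exact Nat.zero_le _
    refine (Finset.sum_le_card_nsmul _ _ _ hdeg).trans ?_
    rw [smul_eq_mul]
    exact Nat.mul_le_mul_right _ hcard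
  have h1 := Finset.sum_le_sum hle
  rw [hsum] at h1
  have h2 : ∑ r ∈ labs.toFinset, 2 * r.2.2 ^ 2 = 108800 := by
    rw [List.sum_toFinset _ (by decide)]
    exact sum_lab
  rw [h2] at h1
  omega

/-- the central character and the index -/
theorem exists_sign {n : ℕ} (hn : 8 ≤ n) {G : Type u} [Group G] [Finite G] {N V : Subgroup G} {π : N →* An n}
    (h : Cen n N V π) (hne : V ≠ ⊥) : ∃ (z : N) (hz : z ∈ V.subgroupOf N) (l : V.subgroupOf N →* ℂˣ),
      IsCover π z ∧ (l ⟨z, hz⟩ : ℂ) = -1 ∧ (V.subgroupOf N).index = Nat.card (An n) := by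
  obtain ⟨z, h1, h2, h3⟩ := h.exists_z hn hne
  have hc := h.isCover h1 h2 h3
  obtain ⟨χ, hχ, hχz, hχ1⟩ := Cfsg.Agent.H107.Spin.exists_basic_spin (by omega) hc
  obtain ⟨l, hl⟩ := exists_lin h.sub_le_center hχ
  have hz : z ∈ V.subgroupOf N := (h3 z).2 (Or.inr rfl)
  refine ⟨z, hz, l, hc, ?_, ?_⟩
  · have h4 := hl ⟨z, hz⟩
    change χ z = _ at h4
    rw [hχz] at h4
    have h5 := isIrr_apply_one_ne_zero hχ
    apply mul_left_cancel₀ h5
    rw [← h4]
    ring
  · have h4 : V.subgroupOf N = π.ker := by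
      ext x
      rw [MonoidHom.mem_ker, h.ker, Subgroup.mem_subgroupOf]
    rw [h4, Subgroup.index_ker, MonoidHom.range_eq_top.2 h.surj, Subgroup.card_top]

theorem card_An {n : ℕ} (hn : 2 ≤ n) : 2 * Nat.card (An n) = n.factorial := by
  haveI : Nontrivial (Fin n) := Fin.nontrivial_iff_two_le.2 hn
  rw [two_mul_nat_card_alternatingGroup, Nat.card_perm, Nat.card_fin]

theorem conj_congr {A B : Type*} [Group A] [Group B] (e : A ≃* B) :
    Nat.card (ConjClasses A) = Nat.card (ConjClasses B) := by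
  refine Nat.card_congr ⟨ConjClasses.map e.toMonoidHom, ConjClasses.map e.symm.toMonoidHom, ?_, ?_⟩
  · rintro ⟨a⟩
    change ConjClasses.mk (e.symm (e a)) = ConjClasses.mk a
    rw [MulEquiv.symm_apply_apply]
  · rintro ⟨a⟩
    change ConjClasses.mk (e (e.symm a)) = ConjClasses.mk a
    rw [MulEquiv.apply_symm_apply]

/-- **D6 for `n = 9`** -/
theorem d6_nine {G : Type u} [Group G] [Finite G] (h : charDegrees G ⊆ D 9) (N V : Subgroup G)
    [N.Normal] [V.Normal] (hVN : V ≤ N) (e : (N ⧸ V.subgroupOf N) ≃* An 9) (hperf : ⁅N, N⁆ = N)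
    (hcen : V ≤ Subgroup.centralizer (N : Set G)) (hne : V ≠ ⊥) : False := by
  have hC := cen_of hVN e hperf hcen
  obtain ⟨z, hz, l, hcov, hl, hidx⟩ := exists_sign (by norm_num) hC hne
  refine nine_aux hcov hC.sub_le_center hz l hl ?_ ?_
  · have h1 := card_An (n := 9) (by norm_num)
    have h2 : Nat.factorial 9 = 362880 := by norm_num [Nat.factorial]
    omega
  · intro χ hχ a ha
    obtain ⟨i, hi⟩ := hC.hpow (by norm_num) h hne hχ ha
    exact ⟨i, (Cfsg.Agent.H835.AN.mem_D_iff_of (fun hn _ hl _ hd => Cfsg.Agent.H89.AN.a1_mem hn hl hd)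
      (fun hn _ hd => Cfsg.Agent.H89.AN.a2_part hn hd) (by norm_num) (by norm_num)).1 hi⟩

/-- **D6 for `n = 8`** -/
theorem d6_eight {G : Type u} [Group G] [Finite G] (h : charDegrees G ⊆ D 8) (N V : Subgroup G)
    [N.Normal] [V.Normal] (hVN : V ≤ N) (e : (N ⧸ V.subgroupOf N) ≃* An 8) (hperf : ⁅N, N⁆ = N)
    (hcen : V ≤ Subgroup.centralizer (N : Set G)) (hne : V ≠ ⊥) : False := by
  classical
  have hC := cen_of hVN e hperf hcen
  have hD : ∀ d : ℕ, d ∈ D 8 → d ∈ [1, 7, 14, 20, 21, 28, 35, 45, 56, 64, 70] := fun d hd =>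
    (Cfsg.Agent.H835.AN.mem_D_iff_of (fun hn _ hl _ hd => Cfsg.Agent.H89.AN.a1_mem hn hl hd)
      (fun hn _ hd => Cfsg.Agent.H89.AN.a2_part hn hd) (by norm_num) (by norm_num)).1 hd
  have h70 : ∀ d ∈ [1, 7, 14, 20, 21, 28, 35, 45, 56, 64, 70], d ≤ 70 := by decide
  obtain ⟨z, hz, l, hcov, hl, hidx⟩ := exists_sign (by norm_num) hC hne
  obtain ⟨i, hi⟩ := hC.fixed (by norm_num) h hne
  obtain ⟨χ₀, hχ₀, hz₀, h1₀⟩ := Cfsg.Agent.H107.Spin.exists_basic_spin (by norm_num) hcov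
  have hfaith : ∀ χ : N → ℂ, IsIrrCharacter N χ → Over (V.subgroupOf N) l χ → ∃ v : V, χ ⟨v, hC.le v.2⟩ ≠ χ 1 := by
    intro χ hχ hov
    refine ⟨⟨z, hz⟩, ?_⟩
    have h2 := hov ⟨z, hz⟩
    rw [hl] at h2
    change χ z ≠ χ 1
    change χ z = _ at h2
    rw [h2]
    intro h3
    exact isIrr_apply_one_ne_zero hχ (by linear_combination (-1 / 2 : ℂ) * h3)
  have hi2 : 2 ≤ i := by
    have h2 := hi χ₀ hχ₀ ⟨⟨z, hz⟩, by
      change χ₀ z ≠ χ₀ 1
      rw [hz₀]
      intro h3
      exact isIrr_apply_one_ne_zero hχ₀ (by linear_combination (-1 / 2 : ℂ) * h3)⟩ _ h1₀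
    by_contra hlt
    have h3 : i < 2 := not_le.1 hlt
    interval_cases i
    · rcases h2 with h2 | h2
      · have := hD _ h2
        revert this
        decide
      · have := hD _ h2
        revert this
        decide
    · rcases h2 with h2 | h2
      · have := hD _ h2
        revert this
        decide
      · have := hD _ h2
        revert this
        decide
  haveI := finite_irr (G := N)
  haveI := Fintype.ofFinite (IrrCharacter N)
  have hsum := sum_sq hC.sub_le_center l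
  rw [hidx, ← Finset.sum_filter] at hsum
  have hcard : (Finset.univ.filter fun χ : IrrCharacter N => Over (V.subgroupOf N) l χ).card ≤ 44 := by
    have h2 := card_over_le hC.sub_le_center l
    rw [Nat.card_eq_fintype_card, Fintype.card_subtype] at h2
    refine h2.trans ?_
    have h3 : Nat.card (ConjClasses (N ⧸ V.subgroupOf N)) = Nat.card (ConjClasses (An 8)) :=
      conj_congr e
    rw [h3]
    have h4 := Cfsg.Agent.H957.AN.D4.card_conjClasses_alt_le (Fin 8)
    rw [Fintype.card_fin] at h4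
    have h5 : Fintype.card (Nat.Partition 8) ≤ 22 :=
      Cfsg.Agent.H957.AN.D4.card_partition_le 8 17 (by norm_num)
    exact h4.trans (Nat.mul_le_mul_left 2 h5)
  have hle : ∀ χ ∈ (Finset.univ.filter fun χ : IrrCharacter N => Over (V.subgroupOf N) l χ),
      charDegree (χ : N → ℂ) ^ 2 ≤ 17 ^ 2 := by
    intro χ hχ
    have hov := (Finset.mem_filter.1 hχ).2
    obtain ⟨m, hm0, hm⟩ := isIrr_apply_one χ.2
    rw [Cfsg.Agent.Blocks.Basic.charDegree_of_eq hm]
    have h2 : 2 ^ i * m ≤ 70 := by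
      rcases hi χ χ.2 (hfaith χ χ.2 hov) m hm with h2 | h2
      · exact h70 _ (hD _ h2)
      · have h3 := h70 _ (hD _ h2)
        rw [pow_succ] at h3
        have : 2 ^ i * 2 * m = 2 * (2 ^ i * m) := by ring
        omega
    have h3 : 2 ^ 2 * m ≤ 2 ^ i * m := Nat.mul_le_mul_right _ (Nat.pow_le_pow_right (by norm_num) hi2)
    exact Nat.pow_le_pow_left (by omega) 2
  have h2 := Finset.sum_le_card_nsmul _ _ _ hle
  rw [hsum, smul_eq_mul] at h2
  have h3 := Nat.mul_le_mul_right (17 ^ 2) hcard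
  have h4 := card_An (n := 8) (by norm_num)
  have h5 : Nat.factorial 8 = 40320 := by norm_num [Nat.factorial]
  omega

end Cfsg.Agent.H450.AN
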